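import Mathlib
import Cfsg.Agent.Lib.Helper19.DG33.Model
import Cfsg.Agent.Lib.Helper86.UnBase

/-!
# DG33 sub-package [RPZ] (helper77)

`Z` is central in `P`, `P / Z` is abelian, every element of `P \ Z` is non-central, `P ≠ Z`,
in the antidiagonal model of `SU(3,3)`.
-/

set_option autoImplicit false

namespace Cfsg.Agent.Lib.Helper77.DG33

open Matrix Cfsg.Agent.Lib.Helper45 Cfsg.Agent.Lib.Helper86.Un Cfsg.Agent.Lib.Helper86.SU3
  Cfsg.Agent.Lib.Helper86.SL3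

universe u

section

variable {F : Type u} [Field F] {σ : F →+* F}

/-- the unitriangular matrices of the group. -/
theorem validP3 (hσσ : ∀ x, σ (σ x) = x) (x y : F) (hxy : y + σ y + x * σ x = 0) :
    ValidU σ (!![1, x, y; 0, 1, -σ x; 0, 0, 1] : Matrix (Fin 3) (Fin 3) F) := by
  refine ⟨by rw [det3]; ring, ?_⟩
  rw [adj3, Matrix.mul_fin_three, Matrix.one_fin_three]
  apply m3_ext <;> simp only [map_zero, map_one, map_neg, hσσ] <;>
    first | ring1 | linear_combination hxy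

end

section

variable {F : Type u} [Field F] [Fintype F]

/-- the `(0,1)` entry is additive on `P`. -/
theorem pm01 (hF : Fintype.card F = 3 ^ 2) (p q : UJ 3 (sigmaQ hF))
    (hp : p ∈ Cfsg.Agent.Lib.Helper19.DG33.Pm hF) (hq : q ∈ Cfsg.Agent.Lib.Helper19.DG33.Pm hF) :
    mat (p * q) 0 1 = mat p 0 1 + mat q 0 1 := by
  obtain ⟨⟨p10, p20, p21⟩, p00, p11, p22⟩ := hp
  obtain ⟨⟨q10, q20, q21⟩, q00, q11, q22⟩ := hq
  rw [map_mul, Matrix.mul_apply, Fin.sum_univ_three, p00, q11, q21]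
  ring

/-- the `(1,2)` entry is additive on `P`. -/
theorem pm12 (hF : Fintype.card F = 3 ^ 2) (p q : UJ 3 (sigmaQ hF))
    (hp : p ∈ Cfsg.Agent.Lib.Helper19.DG33.Pm hF) (hq : q ∈ Cfsg.Agent.Lib.Helper19.DG33.Pm hF) :
    mat (p * q) 1 2 = mat p 1 2 + mat q 1 2 := by
  obtain ⟨⟨p10, p20, p21⟩, p00, p11, p22⟩ := hp
  obtain ⟨⟨q10, q20, q21⟩, q00, q11, q22⟩ := hq
  rw [map_mul, Matrix.mul_apply, Fin.sum_univ_three, p10, p11, q22]
  ring

/-- the `(0,2)` entry of a product in `P`. -/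
theorem pm02 (hF : Fintype.card F = 3 ^ 2) (p q : UJ 3 (sigmaQ hF))
    (hp : p ∈ Cfsg.Agent.Lib.Helper19.DG33.Pm hF) (hq : q ∈ Cfsg.Agent.Lib.Helper19.DG33.Pm hF) :
    mat (p * q) 0 2 = mat p 0 2 + mat p 0 1 * mat q 1 2 + mat q 0 2 := by
  obtain ⟨⟨p10, p20, p21⟩, p00, p11, p22⟩ := hp
  obtain ⟨⟨q10, q20, q21⟩, q00, q11, q22⟩ := hq
  rw [map_mul, Matrix.mul_apply, Fin.sum_univ_three, p00, q22]
  ring

/-- the explicit form of an element of `P`. -/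
theorem pm_form (hF : Fintype.card F = 3 ^ 2) (p : UJ 3 (sigmaQ hF))
    (hp : p ∈ Cfsg.Agent.Lib.Helper19.DG33.Pm hF) :
    mat p = !![1, mat p 0 1, mat p 0 2; 0, 1, mat p 1 2; 0, 0, 1] := by
  obtain ⟨⟨p10, p20, p21⟩, p00, p11, p22⟩ := hp
  ext i j
  fin_cases i <;> fin_cases j <;>
    first | rfl | exact p00 | exact p11 | exact p22 | exact p10 | exact p20 | exact p21

/-- unitarity: the `(1,2)` entry of an element of `P`. -/
theorem pm_f (hF : Fintype.card F = 3 ^ 2) (p : UJ 3 (sigmaQ hF))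
    (hp : p ∈ Cfsg.Agent.Lib.Helper19.DG33.Pm hF) :
    mat p 1 2 = -sigmaQ hF (mat p 0 1) := by
  obtain ⟨⟨p10, p20, p21⟩, p00, p11, p22⟩ := hp
  have e := congrFun (congrFun (valid_mat p).2 1) 2
  rw [Matrix.mul_apply, Fin.sum_univ_three] at e
  have e2 : (1 : Matrix (Fin 3) (Fin 3) F) 1 2 = 0 := Matrix.one_apply_ne (by decide)
  rw [e2] at e
  have e' : sigmaQ hF (mat p 2 1) * mat p 0 2 + sigmaQ hF (mat p 1 1) * mat p 1 2 +
      sigmaQ hF (mat p 0 1) * mat p 2 2 = 0 := e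
  rw [p21, p11, p22, map_zero, map_one] at e'
  linear_combination e'

/-- the `(0,1)` entry of an inverse in `P`. -/
theorem pm01_inv (hF : Fintype.card F = 3 ^ 2) (p : UJ 3 (sigmaQ hF))
    (hp : p ∈ Cfsg.Agent.Lib.Helper19.DG33.Pm hF) : mat p⁻¹ 0 1 = -mat p 0 1 := by
  have h := pm01 hF p p⁻¹ hp ((Cfsg.Agent.Lib.Helper19.DG33.Pm hF).inv_mem hp)
  rw [mul_inv_cancel, map_one] at h
  have h0 : (1 : Matrix (Fin 3) (Fin 3) F) 0 1 = 0 := Matrix.one_apply_ne (by decide)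
  rw [h0] at h
  linear_combination -h

/-- the `(1,2)` entry of an inverse in `P`. -/
theorem pm12_inv (hF : Fintype.card F = 3 ^ 2) (p : UJ 3 (sigmaQ hF))
    (hp : p ∈ Cfsg.Agent.Lib.Helper19.DG33.Pm hF) : mat p⁻¹ 1 2 = -mat p 1 2 := by
  have h := pm12 hF p p⁻¹ hp ((Cfsg.Agent.Lib.Helper19.DG33.Pm hF).inv_mem hp)
  rw [mul_inv_cancel, map_one] at h
  have h0 : (1 : Matrix (Fin 3) (Fin 3) F) 1 2 = 0 := Matrix.one_apply_ne (by decide)
  rw [h0] at h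
  linear_combination -h

/-- an element of `P` with prescribed `(0,1)` entry. -/
theorem exists_pm (hF : Fintype.card F = 3 ^ 2) (x : F) :
    ∃ q ∈ Cfsg.Agent.Lib.Helper19.DG33.Pm hF, mat q 0 1 = x ∧ mat q 1 2 = -sigmaQ hF x := by
  have hσσ : ∀ x, sigmaQ hF (sigmaQ hF x) = x := Cfsg.Agent.Lib.Helper19.DG33.sig_sig hF
  obtain ⟨y, hy⟩ := (herm_sigmaQ hF).exists_Q x
  have hv := validP3 hσσ x y hy
  have hq : mat (ofMat (sigmaQ hF) (!![1, x, y; 0, 1, -sigmaQ hF x; 0, 0, 1] :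
      Matrix (Fin 3) (Fin 3) F)) = !![1, x, y; 0, 1, -sigmaQ hF x; 0, 0, 1] := mat_ofMat hv
  refine ⟨ofMat (sigmaQ hF) (!![1, x, y; 0, 1, -sigmaQ hF x; 0, 0, 1] :
      Matrix (Fin 3) (Fin 3) F), ?_, ?_, ?_⟩
  · rw [Cfsg.Agent.Lib.Helper19.DG33.mem_Pm, Cfsg.Agent.Lib.Helper19.DG33.mem_Bm, hq]
    exact ⟨⟨rfl, rfl, rfl⟩, rfl, rfl, rfl⟩
  · rw [hq]
    rfl
  · rw [hq]
    rfl

end

/-- **[RPZ]** -/
theorem pkgRPZ : Cfsg.Agent.Lib.Helper19.DG33.PkgRPZ.{u} := by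
  intro F _ _ hF
  have hσσ : ∀ x, sigmaQ hF (sigmaQ hF x) = x := Cfsg.Agent.Lib.Helper19.DG33.sig_sig hF
  refine ⟨?_, ?_, ?_, ?_⟩
  · -- `Z` is central in `P`
    intro z hz p hp
    obtain ⟨hzP, hz01, hz12⟩ := hz
    obtain ⟨c, hc⟩ : ∃ c, mat z 0 2 = c := ⟨_, rfl⟩
    obtain ⟨x, hx⟩ : ∃ x, mat p 0 1 = x := ⟨_, rfl⟩
    obtain ⟨y, hy⟩ : ∃ y, mat p 0 2 = y := ⟨_, rfl⟩
    obtain ⟨f, hf⟩ : ∃ f, mat p 1 2 = f := ⟨_, rfl⟩
    have hzm := pm_form hF z hzP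
    rw [hz01, hz12, hc] at hzm
    have hpm := pm_form hF p hp
    rw [hx, hy, hf] at hpm
    apply mat_injective
    rw [map_mul, map_mul, hzm, hpm, Matrix.mul_fin_three, Matrix.mul_fin_three]
    apply m3_ext <;> ring
  · -- commutators lie in `Z`
    intro p hp q hq
    have hpi := (Cfsg.Agent.Lib.Helper19.DG33.Pm hF).inv_mem hp
    have hqi := (Cfsg.Agent.Lib.Helper19.DG33.Pm hF).inv_mem hq
    have hpq := (Cfsg.Agent.Lib.Helper19.DG33.Pm hF).mul_mem hp hq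
    have hpqp := (Cfsg.Agent.Lib.Helper19.DG33.Pm hF).mul_mem hpq hpi
    refine ⟨(Cfsg.Agent.Lib.Helper19.DG33.Pm hF).mul_mem hpqp hqi, ?_, ?_⟩
    · rw [pm01 hF _ _ hpqp hqi, pm01 hF _ _ hpq hpi, pm01 hF _ _ hp hq, pm01_inv hF p hp,
        pm01_inv hF q hq]
      ring
    · rw [pm12 hF _ _ hpqp hqi, pm12 hF _ _ hpq hpi, pm12 hF _ _ hp hq, pm12_inv hF p hp,
        pm12_inv hF q hq]
      ring
  · -- elements outside `Z` are not central
    intro p hp hpZ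
    have hf := pm_f hF p hp
    have hx : mat p 0 1 ≠ 0 := by
      intro h0
      apply hpZ
      refine ⟨hp, h0, ?_⟩
      rw [hf, h0, map_zero, neg_zero]
    have hσx : sigmaQ hF (mat p 0 1) ≠ 0 := (map_ne_zero (sigmaQ hF)).mpr hx
    obtain ⟨c, hc⟩ := (herm_sigmaQ hF).nonfix
    obtain ⟨q, hq, hq01, hq12⟩ := exists_pm hF (c / sigmaQ hF (mat p 0 1))
    refine ⟨q, hq, ?_⟩
    intro h
    have h02 : mat (p * q) 0 2 = mat (q * p) 0 2 := by rw [h]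
    rw [pm02 hF p q hp hq, pm02 hF q p hq hp, hq12, hq01, hf, map_div₀, hσσ] at h02
    apply hc
    field_simp at h02
    linear_combination (-1 : F) * h02
  · -- `P ≠ Z`
    obtain ⟨q, hq, hq01, -⟩ := exists_pm hF (1 : F)
    refine ⟨q, hq, ?_⟩
    rintro ⟨-, h01, -⟩
    rw [hq01] at h01
    exact one_ne_zero h01

end Cfsg.Agent.Lib.Helper77.DG33
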