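import Mathlib
import Cfsg.Agent.Lib.Helper19.DG33.Model
import Cfsg.Agent.Lib.Helper86.SU3Common
import Cfsg.Agent.S0283

/-!
# DG33 sub-package [RPERF] (helper77)

The antidiagonal model of `SU(3,3)` is perfect (transport of the simplicity of `PSU 3 F 3`).
-/

set_option autoImplicit false

namespace Cfsg.Agent.Lib.Helper77.DG33

open Cfsg.Agent.Lib.Helper45 Cfsg.Agent.Lib.Helper86.Un Cfsg.Agent.Lib.Helper86.SU3
open scoped commutatorElement

universe u

/-- **[RPERF]** -/
theorem pkgRPerf : Cfsg.Agent.Lib.Helper19.DG33.PkgRPerf.{u} := by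
  intro hIso F _ _ hF
  obtain ⟨e⟩ := hIso F hF
  have hs : IsSimpleGroup (Cfsg.PSU 3 F 3) := Cfsg.Agent.S0283.result hF 3 le_rfl (by decide)
  have hnt : Nontrivial (UJ 3 (sigmaQ hF)) := e.toEquiv.nontrivial
  have hG : IsSimpleGroup (UJ 3 (sigmaQ hF)) :=
    IsSimpleGroup.isSimpleGroup_of_surjective e.symm.toMonoidHom e.symm.surjective
  rcases (inferInstance : (commutator (UJ 3 (sigmaQ hF))).Normal).eq_bot_or_eq_top with h | h
  · exfalso
    have hcomm : ∀ a b : UJ 3 (sigmaQ hF), a * b = b * a := by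
      intro a b
      have h1 : ⁅a, b⁆ ∈ commutator (UJ 3 (sigmaQ hF)) :=
        Subgroup.commutator_mem_commutator (Subgroup.mem_top a) (Subgroup.mem_top b)
      rw [h, Subgroup.mem_bot, commutatorElement_eq_one_iff_mul_comm] at h1
      exact h1
    let _ : CommGroup (UJ 3 (sigmaQ hF)) :=
      { (inferInstance : Group (UJ 3 (sigmaQ hF))) with mul_comm := hcomm }
    have hp := IsSimpleGroup.prime_card (α := UJ 3 (sigmaQ hF))
    rw [card_UJ3 hF 2 rfl] at hp
    norm_num at hp
  · exact h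

end Cfsg.Agent.Lib.Helper77.DG33
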